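import Mathlib
import Cfsg.Agent.Tri8.Data
import Cfsg.Agent.Tri8.DataU
import Cfsg.Agent.Tri8.DataK
import Cfsg.Agent.SF6.Ar
import Cfsg.Agent.Rec.Loc
import Cfsg.Agent.Rec.SylTools
import Cfsg.Agent.Loc.MssSyl

/-!
A subgroup `L ≅ Ω₈⁺(2)` with its root elements and triality; an involution `t` centralising it.
Model and python helper: tools/tri8/m.py.  Plan: stubs/Cfsg/Agent/Tri8/PLAN.md.
-/

set_option autoImplicit false
set_option linter.unusedSectionVars false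
set_option maxRecDepth 100000
set_option synthInstance.maxSize 100000
set_option synthInstance.maxHeartbeats 1000000

namespace Cfsg.Agent.Tri8

open Cfsg.Agent.Rec Cfsg.Agent.Spor Cfsg.Agent.Loc.Mss Subgroup

/-- Root elements of `L ≅ Ω₈⁺(2)`.  The indices `0, 1, 2` stand for the outer nodes `1, 3, 4` of the diagram. -/
structure Fr (G : Type*) [Group G] where
  (x m k h : Fin 3 → G)
  (x2 m2 y z : G)
  L : Subgroup G
  C : Equiv.Perm (Fin 3) → Cod B8.A G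
  rep : ∀ σ : Equiv.Perm (Fin 3), (C σ).RepL cX [x (σ 0), x (σ 1), x (σ 2), m (σ 0), m (σ 1), m (σ 2),
    k (σ 0), k (σ 1), k (σ 2), h (σ 0), h (σ 1), h (σ 2), x2, m2, y, z]
  gen : L = closure (Set.range x ∪ Set.range m ∪ {x2, m2})
  card : Nat.card L = 174182400
  simple : IsSimpleGroup L
  aut : ∀ g ∈ 𝐍[L], ∃ l ∈ L, ∃ σ : Equiv.Perm (Fin 3), (∀ i, g * x i * g⁻¹ = l * x (σ i) * l⁻¹) ∧
    (∀ i, g * m i * g⁻¹ = l * m (σ i) * l⁻¹) ∧ g * x2 * g⁻¹ = l * x2 * l⁻¹ ∧ g * m2 * g⁻¹ = l * m2 * l⁻¹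

variable {G : Type*} [Group G]

namespace Fr

variable (s : Fr G)

/-- A named letter. -/
def x1 : G := s.x 0
/-- A named letter. -/
def x3 : G := s.x 1
/-- A named letter. -/
def x4 : G := s.x 2
/-- A named letter. -/
def m1 : G := s.m 0
/-- A named letter. -/
def m3 : G := s.m 1
/-- A named letter. -/
def m4 : G := s.m 2
/-- A named letter. -/
def k1 : G := s.k 0
/-- A named letter. -/
def k3 : G := s.k 1
/-- A named letter. -/
def k4 : G := s.k 2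
/-- A named letter. -/
def h1 : G := s.h 0
/-- A named letter. -/
def h3 : G := s.h 1
/-- A named letter. -/
def h4 : G := s.h 2
/-- The codes. -/
def C1 : Cod B8.A G := s.C 1

theorem rp : s.C1.RepL cX [s.x1, s.x3, s.x4, s.m1, s.m3, s.m4, s.k1, s.k3, s.k4, s.h1, s.h3, s.h4, s.x2, s.m2, s.y, s.z] :=
  s.rep 1

/-- Generators of `L`. -/
abbrev gL : List G := [s.x1, s.x3, s.x4, s.m1, s.m3, s.m4, s.x2, s.m2]
/-- Generators of `C_L(z)`. -/
abbrev gP : List G := [s.x1, s.x3, s.x4, s.m1, s.m3, s.m4, s.x2]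
/-- Generators of `N_L(A1)`. -/
abbrev gN : List G := [s.x1, s.x3, s.x4, s.x2, s.m2, s.m3, s.m4]
/-- Generators of `U`. -/
abbrev eU : List G := [s.x1, s.x3, s.x4, s.x2]
/-- The centre of `U`; order 2. -/
def Z : Subgroup G := clos [s.z]
/-- The second centre of `U`; order 4. -/
def Z2 : Subgroup G := clos [s.y, s.z]
/-- Roots of height at least three; order 32. -/
def H5 : Subgroup G := clos [s.h1, s.h3, s.h4, s.y, s.z]
/-- `O₂(C_L(z))`, extraspecial; order 512. -/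
def Q : Subgroup G := clos [s.x2, s.k1, s.k3, s.k4, s.h1, s.h3, s.h4, s.y, s.z]
/-- The commutator subgroup of `U`; also `C_Q(y)`; order 256. -/
def U1 : Subgroup G := clos [s.k1, s.k3, s.k4, s.h1, s.h3, s.h4, s.y, s.z]
/-- `C_L(y, z)`; order 2048. -/
def V0 : Subgroup G := clos [s.x1, s.x3, s.x4, s.k1, s.k3, s.k4]
/-- A Sylow 2-subgroup of `L`; order 4096. -/
def U : Subgroup G := clos [s.x1, s.x3, s.x4, s.x2]
/-- The Levi factor `S₃ × S₃ × S₃` of `C_L(z)`; order 216. -/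
def Lam : Subgroup G := clos [s.x1, s.x3, s.x4, s.m1, s.m3, s.m4]
/-- A complement to `Q` in `U`; order 8. -/
def X8 : Subgroup G := clos [s.x1, s.x3, s.x4]
/-- The Sylow 3-subgroup of `Lam`; order 27. -/
def E27 : Subgroup G := clos [s.x1 * s.m1, s.x3 * s.m3, s.x4 * s.m4]
/-- Elementary abelian, normal in `U`; order 64. -/
def A1 : Subgroup G := clos [s.x1, s.k1, s.h3, s.h4, s.y, s.z]
/-- Elementary abelian, normal in `U`; order 64. -/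
def A3 : Subgroup G := clos [s.x3, s.k3, s.h1, s.h4, s.y, s.z]
/-- Elementary abelian, normal in `U`; order 64. -/
def A4 : Subgroup G := clos [s.x4, s.k4, s.h1, s.h3, s.y, s.z]
/-- Elementary abelian, normal in `U`; order 64. -/
def B1 : Subgroup G := clos [s.x3 * s.x4, s.k3 * s.k4, s.h3 * s.h4, s.h1, s.y, s.z]
/-- Elementary abelian, normal in `U`; order 64. -/
def B3 : Subgroup G := clos [s.x1 * s.x4, s.k1 * s.k4, s.h1 * s.h4, s.h3, s.y, s.z]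
/-- Elementary abelian, normal in `U`; order 64. -/
def B4 : Subgroup G := clos [s.x1 * s.x3, s.k1 * s.k3, s.h1 * s.h3, s.h4, s.y, s.z]
/-- All involutions are root elements; order 8. -/
def P1 : Subgroup G := clos [s.h1, s.y, s.z]
/-- All involutions are root elements; order 8. -/
def P3 : Subgroup G := clos [s.h3, s.y, s.z]
/-- All involutions are root elements; order 8. -/
def P4 : Subgroup G := clos [s.h4, s.y, s.z]
/-- Extraspecial; order 128. -/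
def Qy : Subgroup G := clos [s.k1, s.k3, s.k4, s.h1, s.h3, s.h4]
/-- `C_Q(y, h1)`; order 128. -/
def Q1 : Subgroup G := clos [s.k3, s.k4, s.h1, s.h3, s.h4, s.y]
/-- `C_U(h3 h4)`; order 1024. -/
def Cc : Subgroup G := clos [s.x1, s.x2, s.k1, s.h1, s.h3, s.x3 * s.x4]
/-- `C_U(h1 h3 h4)`; order 1024. -/
def Ce : Subgroup G := clos [s.x2, s.h1, s.h3, s.h4, s.x3 * s.x4, s.x1 * s.x4]
/-- `C_L(z)`, of order 110592 (not listed; it is `Q Lam`). -/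
def Pz : Subgroup G := clos s.gP
/-- `N_L(A1)` (not listed). -/
def NA : Subgroup G := clos s.gN
/-- The 1575 root elements. -/
def KA : Set G := cls s.gL s.z
/-- The 54 conjugates of `y` under `Pz`. -/
def Ky : Set G := cls s.gP s.y
/-- The 35 root elements in `A1`. -/
def N35 : Set G := cls s.gN s.z
/-- The other 28 involutions of `A1`. -/
def N28 : Set G := cls s.gN (s.h3 * s.h4)

theorem gZ : s.C1.Lists Z_t.dom s.Z ∧ Nat.card s.Z = 2 :=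
  (s.rp.pick [15]).gen Z_ok
theorem gZ2 : s.C1.Lists Z2_t.dom s.Z2 ∧ Nat.card s.Z2 = 4 :=
  (s.rp.pick [14, 15]).gen Z2_ok
theorem gH5 : s.C1.Lists H5_t.dom s.H5 ∧ Nat.card s.H5 = 32 :=
  (s.rp.pick [9, 10, 11, 14, 15]).gen H5_ok
theorem gQ : s.C1.Lists Q_t.dom s.Q ∧ Nat.card s.Q = 512 :=
  (s.rp.pick [12, 6, 7, 8, 9, 10, 11, 14, 15]).gen Q_ok
theorem gU1 : s.C1.Lists U1_t.dom s.U1 ∧ Nat.card s.U1 = 256 :=
  (s.rp.pick [6, 7, 8, 9, 10, 11, 14, 15]).gen U1_ok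
theorem gV0 : s.C1.Lists V0_t.dom s.V0 ∧ Nat.card s.V0 = 2048 :=
  (s.rp.pick [0, 1, 2, 6, 7, 8]).gen V0_ok
theorem gU : s.C1.Lists U_t.dom s.U ∧ Nat.card s.U = 4096 :=
  (s.rp.pick [0, 1, 2, 12]).gen U_ok
theorem gLam : s.C1.Lists Lam_t.dom s.Lam ∧ Nat.card s.Lam = 216 :=
  (s.rp.pick [0, 1, 2, 3, 4, 5]).gen Lam_ok
theorem gX8 : s.C1.Lists X8_t.dom s.X8 ∧ Nat.card s.X8 = 8 :=
  (s.rp.pick [0, 1, 2]).gen X8_ok
theorem gE27 : s.C1.Lists E27_t.dom s.E27 ∧ Nat.card s.E27 = 27 :=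
  ((s.rp.term (s.x1 * s.m1) (by decide +kernel)).cons <| (s.rp.term (s.x3 * s.m3) (by decide +kernel)).cons <| (s.rp.term (s.x4 * s.m4) (by decide +kernel)).cons Cod.repL_nil).gen E27_ok
theorem gA1 : s.C1.Lists A1_t.dom s.A1 ∧ Nat.card s.A1 = 64 :=
  (s.rp.pick [0, 6, 10, 11, 14, 15]).gen A1_ok
theorem gA3 : s.C1.Lists A3_t.dom s.A3 ∧ Nat.card s.A3 = 64 :=
  (s.rp.pick [1, 7, 9, 11, 14, 15]).gen A3_ok
theorem gA4 : s.C1.Lists A4_t.dom s.A4 ∧ Nat.card s.A4 = 64 :=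
  (s.rp.pick [2, 8, 9, 10, 14, 15]).gen A4_ok
theorem gB1 : s.C1.Lists B1_t.dom s.B1 ∧ Nat.card s.B1 = 64 :=
  ((s.rp.term (s.x3 * s.x4) (by decide +kernel)).cons <| (s.rp.term (s.k3 * s.k4) (by decide +kernel)).cons <| (s.rp.term (s.h3 * s.h4) (by decide +kernel)).cons <| (s.rp.nth 9).cons <| (s.rp.nth 14).cons <| (s.rp.nth 15).cons Cod.repL_nil).gen B1_ok
theorem gB3 : s.C1.Lists B3_t.dom s.B3 ∧ Nat.card s.B3 = 64 :=
  ((s.rp.term (s.x1 * s.x4) (by decide +kernel)).cons <| (s.rp.term (s.k1 * s.k4) (by decide +kernel)).cons <| (s.rp.term (s.h1 * s.h4) (by decide +kernel)).cons <| (s.rp.nth 10).cons <| (s.rp.nth 14).cons <| (s.rp.nth 15).cons Cod.repL_nil).gen B3_ok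
theorem gB4 : s.C1.Lists B4_t.dom s.B4 ∧ Nat.card s.B4 = 64 :=
  ((s.rp.term (s.x1 * s.x3) (by decide +kernel)).cons <| (s.rp.term (s.k1 * s.k3) (by decide +kernel)).cons <| (s.rp.term (s.h1 * s.h3) (by decide +kernel)).cons <| (s.rp.nth 11).cons <| (s.rp.nth 14).cons <| (s.rp.nth 15).cons Cod.repL_nil).gen B4_ok
theorem gP1 : s.C1.Lists P1_t.dom s.P1 ∧ Nat.card s.P1 = 8 :=
  (s.rp.pick [9, 14, 15]).gen P1_ok
theorem gP3 : s.C1.Lists P3_t.dom s.P3 ∧ Nat.card s.P3 = 8 :=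
  (s.rp.pick [10, 14, 15]).gen P3_ok
theorem gP4 : s.C1.Lists P4_t.dom s.P4 ∧ Nat.card s.P4 = 8 :=
  (s.rp.pick [11, 14, 15]).gen P4_ok
theorem gQy : s.C1.Lists Qy_t.dom s.Qy ∧ Nat.card s.Qy = 128 :=
  (s.rp.pick [6, 7, 8, 9, 10, 11]).gen Qy_ok
theorem gQ1 : s.C1.Lists Q1_t.dom s.Q1 ∧ Nat.card s.Q1 = 128 :=
  (s.rp.pick [7, 8, 9, 10, 11, 14]).gen Q1_ok
theorem gCc : s.C1.Lists Cc_t.dom s.Cc ∧ Nat.card s.Cc = 1024 :=
  ((s.rp.nth 0).cons <| (s.rp.nth 12).cons <| (s.rp.nth 6).cons <| (s.rp.nth 9).cons <| (s.rp.nth 10).cons <| (s.rp.term (s.x3 * s.x4) (by decide +kernel)).cons Cod.repL_nil).gen Cc_ok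
theorem gCe : s.C1.Lists Ce_t.dom s.Ce ∧ Nat.card s.Ce = 1024 :=
  ((s.rp.nth 12).cons <| (s.rp.nth 9).cons <| (s.rp.nth 10).cons <| (s.rp.nth 11).cons <| (s.rp.term (s.x3 * s.x4) (by decide +kernel)).cons <| (s.rp.term (s.x1 * s.x4) (by decide +kernel)).cons Cod.repL_nil).gen Ce_ok
theorem gKA : s.C1.Lists KA_t.dom s.KA ∧ s.KA.ncard = 1575 :=
  (s.rp.pick [0, 1, 2, 3, 4, 5, 12, 13]).orb (s.rp.nth 15) KA_ok
theorem gKy : s.C1.Lists Ky_t.dom s.Ky ∧ s.Ky.ncard = 54 := (s.rp.pick [0, 1, 2, 3, 4, 5, 12]).orb (s.rp.nth 14) Ky_ok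
theorem gN35 : s.C1.Lists N35_t.dom s.N35 ∧ s.N35.ncard = 35 :=
  (s.rp.pick [0, 1, 2, 12, 13, 4, 5]).orb (s.rp.nth 15) N35_ok
theorem gN28 : s.C1.Lists N28_t.dom s.N28 ∧ s.N28.ncard = 28 :=
  (s.rp.pick [0, 1, 2, 12, 13, 4, 5]).orb (s.rp.term _ (by decide +kernel)) N28_ok

/-- All listed sets: `s.hL.decide s.rp (by decide +kernel)` decides statements about them. -/
theorem hL : s.C1.ListsL
    [Z_t.dom, Z2_t.dom, H5_t.dom, Q_t.dom, U1_t.dom, V0_t.dom, U_t.dom, Lam_t.dom, X8_t.dom, E27_t.dom, A1_t.dom, A3_t.dom, A4_t.dom, B1_t.dom, B3_t.dom, B4_t.dom, P1_t.dom, P3_t.dom, P4_t.dom, Qy_t.dom, Q1_t.dom, Cc_t.dom, Ce_t.dom, KA_t.dom, Ky_t.dom, N35_t.dom, N28_t.dom]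
    [s.Z, s.Z2, s.H5, s.Q, s.U1, s.V0, s.U, s.Lam, s.X8, s.E27, s.A1, s.A3, s.A4, s.B1, s.B3, s.B4, s.P1, s.P3, s.P4, s.Qy, s.Q1, s.Cc, s.Ce, s.KA, s.Ky, s.N35, s.N28] :=
  s.gZ.1.cons <| s.gZ2.1.cons <| s.gH5.1.cons <| s.gQ.1.cons <| s.gU1.1.cons <| s.gV0.1.cons <| s.gU.1.cons <| s.gLam.1.cons <| s.gX8.1.cons <| s.gE27.1.cons <| s.gA1.1.cons <| s.gA3.1.cons <| s.gA4.1.cons <| s.gB1.1.cons <| s.gB3.1.cons <| s.gB4.1.cons <| s.gP1.1.cons <| s.gP3.1.cons <| s.gP4.1.cons <| s.gQy.1.cons <| s.gQ1.1.cons <| s.gCc.1.cons <| s.gCe.1.cons <| s.gKA.1.cons <| s.gKy.1.cons <| s.gN35.1.cons <| s.gN28.1.cons Cod.listsL_nil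

theorem L_eq : s.L = clos s.gL := by
  rw [s.gen, clos]
  congr 1
  ext a
  simp only [Set.mem_union, Set.mem_range, Fin.exists_fin_succ, Set.mem_insert_iff, Set.mem_singleton_iff,
    Set.mem_ofPred_eq, List.mem_cons, List.not_mem_nil, IsEmpty.exists_iff, or_false, or_assoc, @eq_comm _ _ a]
  rfl

theorem U_le : s.U ≤ s.L := by
  rw [s.L_eq]
  exact clos_le.2 fun a ha => mem_clos (by simp only [List.mem_cons] at ha ⊢; tauto)

theorem mem_L : ∀ a ∈ [s.x1, s.x3, s.x4, s.m1, s.m3, s.m4, s.k1, s.k3, s.k4, s.h1, s.h3, s.h4, s.x2, s.m2, s.y, s.z],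
    a ∈ s.L := by
  have h : s.k1 ∈ s.U ∧ s.k3 ∈ s.U ∧ s.k4 ∈ s.U ∧ s.h1 ∈ s.U ∧ s.h3 ∈ s.U ∧ s.h4 ∈ s.U ∧ s.y ∈ s.U ∧ s.z ∈ s.U :=
    s.hL.decide s.rp (by decide +kernel)
  have g : ∀ a ∈ s.gL, a ∈ s.L := fun a ha => s.L_eq ▸ mem_clos ha
  simp only [List.forall_mem_cons] at g ⊢
  obtain ⟨h1, h2, h3, h4, h5, h6, h7, h8⟩ := h
  obtain ⟨g1, g2, g3, g4, g5, g6, g7, g8, -⟩ := g
  exact ⟨g1, g2, g3, g4, g5, g6, s.U_le h1, s.U_le h2, s.U_le h3, s.U_le h4, s.U_le h5, s.U_le h6, g7, g8,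
    s.U_le h7, s.U_le h8, by simp⟩

/-- `g` acts on `L` as the graph automorphism `σ` followed by conjugation with `l`. -/
structure Ac (g l : G) (σ : Equiv.Perm (Fin 3)) : Prop where
  x : ∀ i, g * s.x i * g⁻¹ = l * s.x (σ i) * l⁻¹
  m : ∀ i, g * s.m i * g⁻¹ = l * s.m (σ i) * l⁻¹
  k : ∀ i, g * s.k i * g⁻¹ = l * s.k (σ i) * l⁻¹
  h : ∀ i, g * s.h i * g⁻¹ = l * s.h (σ i) * l⁻¹
  x2 : g * s.x2 * g⁻¹ = l * s.x2 * l⁻¹
  m2 : g * s.m2 * g⁻¹ = l * s.m2 * l⁻¹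
  y : g * s.y * g⁻¹ = l * s.y * l⁻¹
  z : g * s.z * g⁻¹ = l * s.z * l⁻¹

/-- The frame twisted by a graph automorphism: `(s.tw σ).x i = s.x (σ i)`. -/
def tw (σ : Equiv.Perm (Fin 3)) : Fr G where
  x i := s.x (σ i)
  m i := s.m (σ i)
  k i := s.k (σ i)
  h i := s.h (σ i)
  x2 := s.x2
  m2 := s.m2
  y := s.y
  z := s.z
  L := s.L
  C τ := s.C (σ * τ)
  rep τ := s.rep (σ * τ)
  gen := by
    rw [s.gen]
    congr 3
    · exact (σ.surjective.range_comp s.x).symm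
    · exact (σ.surjective.range_comp s.m).symm
  card := s.card
  simple := s.simple
  aut g hg := by
    obtain ⟨l, hl, τ, h1, h2, h3, h4⟩ := s.aut g hg
    exact ⟨l, hl, σ⁻¹ * τ * σ, fun i => by simpa using h1 (σ i), fun i => by simpa using h2 (σ i), h3, h4⟩

theorem exists_cjC (g : G) (σ : Equiv.Perm (Fin 3)) : ∃ C' : Cod B8.A G, C'.RepL cX
    ([s.x (σ 0), s.x (σ 1), s.x (σ 2), s.m (σ 0), s.m (σ 1), s.m (σ 2), s.k (σ 0), s.k (σ 1), s.k (σ 2),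
      s.h (σ 0), s.h (σ 1), s.h (σ 2), s.x2, s.m2, s.y, s.z].map (MulAut.conj g).toMonoidHom) :=
  Cfsg.Agent.Rec.Syl.repL_map (s.rep σ) _ (MulAut.conj g).injective

/-- The frame conjugated by `g`: `(s.cj g).x i = g * s.x i * g⁻¹`. -/
noncomputable def cj (g : G) : Fr G where
  x i := g * s.x i * g⁻¹
  m i := g * s.m i * g⁻¹
  k i := g * s.k i * g⁻¹
  h i := g * s.h i * g⁻¹
  x2 := g * s.x2 * g⁻¹
  m2 := g * s.m2 * g⁻¹
  y := g * s.y * g⁻¹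
  z := g * s.z * g⁻¹
  L := cj(g, s.L)
  C σ := (s.exists_cjC g σ).choose
  rep σ := (s.exists_cjC g σ).choose_spec
  gen := by
    rw [s.gen, MonoidHom.map_closure, Set.image_union, Set.image_union, ← Set.range_comp, ← Set.range_comp,
      Set.image_pair]
    rfl
  card := by rw [card_cj, s.card]
  simple := by
    have := s.simple
    exact (s.L.equivMapOfInjective _ (MulAut.conj g).injective).symm.isSimpleGroup
  aut a ha := by
    rw [← cj_norm, mem_cj] at ha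
    obtain ⟨l, hl, τ, h1, h2, h3, h4⟩ := s.aut _ ha
    have e : ∀ u v : G, g⁻¹ * a * g * u * (g⁻¹ * a * g)⁻¹ = l * v * l⁻¹ →
        a * (g * u * g⁻¹) * a⁻¹ = g * l * g⁻¹ * (g * v * g⁻¹) * (g * l * g⁻¹)⁻¹ := fun u v h => by
      rw [show g * l * g⁻¹ * (g * v * g⁻¹) * (g * l * g⁻¹)⁻¹ = g * (l * v * l⁻¹) * g⁻¹ by group, ← h]; group
    exact ⟨g * l * g⁻¹, conj_mem_cj hl, τ, fun i => e _ _ (h1 i), fun i => e _ _ (h2 i), e _ _ h3, e _ _ h4⟩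

/-- The Weyl elements. -/
def n1 : G := s.x1 * s.m1 * s.x1
/-- Interchanges `y` and `z`, `x i` and `k i`, `x2` and `m2`; fixes `h i`. -/
def n2 : G := s.x2 * s.m2 * s.x2
/-- The Weyl elements. -/
def n3 : G := s.x3 * s.m3 * s.x3
/-- The Weyl elements. -/
def n4 : G := s.x4 * s.m4 * s.x4

end Fr

/-- An involution `t` with `C(t) ≤ N(L)`, `C(t) ∩ C(L) = ⟨t⟩`, lying in the commutator subgroup. -/
structure Cfg (G : Type*) [Group G] extends Fr G where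
  t : G
  tt : t * t = 1
  tL : t ∉ toFr.L
  tc : ∀ l ∈ toFr.L, l * t = t * l
  cN : ∀ g, g * t = t * g → g ∈ 𝐍[toFr.L]
  cK : ∀ g, g * t = t * g → (∀ l ∈ toFr.L, g * l = l * g) → g = 1 ∨ g = t
  perf : t ∈ commutator G

namespace Cfg

variable (s : Cfg G)

/-- The twisted configuration. -/
def tw (σ : Equiv.Perm (Fin 3)) : Cfg G := ⟨s.toFr.tw σ, s.t, s.tt, s.tL, s.tc, s.cN, s.cK, s.perf⟩

/-- `M = C(t)`. -/
def M : Subgroup G := centralizer {s.t}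
/-- The conjugates of `t`. -/
def D : Set G := {g | IsConj s.t g}
/-- `⟨t⟩ × U`, of order 8192. -/
def T0 : Subgroup G := clos [s.t, s.x1, s.x3, s.x4, s.x2]

/-- The codes of `t` and of the letters. -/
noncomputable def cT : List ℕ := (2 * B8.A.one + 1) :: cX.map (2 * ·)

theorem rep2 {A : Ar} {C : Cod A G} {L : Subgroup G} {t : G} (tt : t * t = 1) (hL : t ∉ L)
    (hc : ∀ l ∈ L, l * t = t * l) {c : List ℕ} {e : List G} (h : C.RepL c e) (he : ∀ x ∈ e, x ∈ L) :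
    (SF6.cod2 C L tt hL hc).RepL (c.map (2 * ·)) e := by
  induction h with
  | nil => exact Cod.repL_nil
  | @cons a x c e h _ ih =>
    refine Cod.Rep.cons ⟨?_, ?_⟩ (ih fun y hy => he y (List.mem_cons_of_mem _ hy))
    · change C.V (2 * a / 2) ∧ C.elt (2 * a / 2) ∈ L
      rw [Nat.mul_div_cancel_left _ two_pos, h.2]
      exact ⟨h.1, he x List.mem_cons_self⟩
    · change C.elt (2 * a / 2) * t ^ (2 * a) = x
      rw [Nat.mul_div_cancel_left _ two_pos, h.2, pow_mul, pow_two, tt, one_pow, mul_one]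

theorem rept {A : Ar} {C : Cod A G} {L : Subgroup G} {t : G} (tt : t * t = 1) (hL : t ∉ L)
    (hc : ∀ l ∈ L, l * t = t * l) : (SF6.cod2 C L tt hL hc).Rep (2 * A.one + 1) t := by
  have h : (2 * A.one + 1) / 2 = A.one := by omega
  refine ⟨?_, ?_⟩
  · change C.V ((2 * A.one + 1) / 2) ∧ C.elt ((2 * A.one + 1) / 2) ∈ L
    rw [h, C.elt_one]
    exact ⟨C.V_one, one_mem _⟩
  · change C.elt ((2 * A.one + 1) / 2) * t ^ (2 * A.one + 1) = t
    rw [h, C.elt_one, one_mul, pow_succ, pow_mul, pow_two, tt, one_pow, one_mul]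

/-- Identities between words in `t` and the letters: `Cod.listsL_nil.decide s.rpt (by decide +kernel)`. -/
theorem rpt : (SF6.cod2 s.C1 s.L s.tt s.tL s.tc).RepL cT [s.t, s.x1, s.x3, s.x4, s.m1, s.m3, s.m4, s.k1, s.k3, s.k4,
    s.h1, s.h3, s.h4, s.x2, s.m2, s.y, s.z] :=
  (rept s.tt s.tL s.tc).cons (rep2 s.tt s.tL s.tc s.rp s.toFr.mem_L)

/-- An involution that moves `t` to `t z` and centralises `Q`. -/
structure Hat (w : G) : Prop where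
  sq : w * w = 1
  t : w * s.t * w⁻¹ = s.t * s.z
  Q : ∀ q ∈ s.Q, w * q = q * w
  be : ∀ i, (w * s.x i * w⁻¹ = s.x i ∧ w * s.m i * w⁻¹ = s.m i) ∨
    (w * s.x i * w⁻¹ = s.x i * s.z ∧ w * s.m i * w⁻¹ = s.m i * s.z)

/-- The conjugate of `w` that belongs to `y`. -/
def wy (w : G) : G := s.n2 * w * s.n2⁻¹

/-- The doubling case: `w` centralises `C_L(z)`. -/
structure Dbl (w : G) : Prop where
  hat : s.Hat w
  x : ∀ i, w * s.x i * w⁻¹ = s.x i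
  m : ∀ i, w * s.m i * w⁻¹ = s.m i
  comm : w * s.wy w = s.wy w * w
  line : s.x2 * s.wy w * s.x2⁻¹ = w * s.wy w ∨ s.x2 * s.wy w * s.x2⁻¹ = s.z * (w * s.wy w)

/-- The Fischer case. -/
structure Fi (w : G) : Prop where
  hat : s.Hat w
  x : ∀ i, w * s.x i * w⁻¹ = s.x i * s.z
  m : ∀ i, w * s.m i * w⁻¹ = s.m i * s.z
  comm : w * s.wy w = s.wy w * w
  line : s.x2 * s.wy w * s.x2⁻¹ = s.h1 * s.h3 * s.h4 * (w * s.wy w) ∨
    s.x2 * s.wy w * s.x2⁻¹ = s.h1 * s.h3 * s.h4 * s.z * (w * s.wy w)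

/-- The elements of the doubled extraspecial group. -/
def QS (w : G) : Set G := {g | g * s.z = s.z * g ∧ g * w = w * g ∧ (∀ q ∈ s.Q, g * q * g⁻¹ * q⁻¹ ∈ clos [s.z, w]) ∧
  ∃ q ∈ s.Q, ∃ c ∈ clos [s.z, w], g * s.t * g⁻¹ = s.t * q * c}
/-- The doubled extraspecial group, of order `2 ^ 18`. -/
def Qh (w : G) : Subgroup G := closure (s.QS w)
/-- `Q × ⟨w⟩`, of order `2 ^ 10`. -/
def Rh (w : G) : Subgroup G := s.Q ⊔ zpowers w

/-- A marker: `R` centralises `z` and `e`, is elementary abelian modulo `⟨z, e⟩` and contains no conjugate of `t`. -/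
structure Mk (e : G) (R : Subgroup G) : Prop where
  sq : e * e = 1
  ne : e ≠ 1 ∧ e ≠ s.z
  z : s.z ∈ R
  mem : e ∈ R
  cz : ∀ r ∈ R, r * s.z = s.z * r
  ce : ∀ r ∈ R, r * e = e * r
  comm : ∀ a ∈ R, ∀ b ∈ R, a * b * a⁻¹ * b⁻¹ ∈ clos [s.z, e]
  sqr : ∀ a ∈ R, a * a ∈ clos [s.z, e]
  nD : ∀ r ∈ R, r ∉ s.D

/-- `T0` normalises the marker and `t` acts nontrivially on `⟨z, e⟩`. -/
structure Fx (e : G) (R : Subgroup G) : Prop where
  mk' : s.Mk e R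
  t : e * s.t * e⁻¹ = s.t * s.z
  nR : s.T0 ≤ 𝐍[R]
  nE : s.T0 ≤ 𝐍[clos [s.z, e]]

end Cfg

end Cfsg.Agent.Tri8
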